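import Cfsg.Agent.BG.S05

/-! Bender-Glauberman section 5, Theorem 5.7. -/

set_option autoImplicit false
set_option linter.style.haveILetI false

namespace Cfsg.Agent.BG

open Subgroup Cfsg.Agent.H20 Cfsg.Agent.H21
open scoped commutatorElement

variable {G : Type*} [Group G] [Finite G] {A B E H K N Q R S V : Subgroup G} {p q : ℕ}

theorem narrow_der1_Aut [Fact p.Prime] (hR : IsPGroup p R) (hodd : Odd ♯R) (hn : Narrow p R)
    (hA : A ≤ N⟦R⟧) (hs : Group.IsSolvable A) (hoA : Odd ♯A) : PiNat {p} ((C⟦R⟧).relIndex ⁅A, A⁆) :=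
  (piNat_coreMod {p} (norm_cent hA)).of_dvd (relIndex_dvd_of_norm (Aut_narrow hR hodd hn hA hs hoA).2.1
    ((der_le A).trans (norm_cent hA)))

/-- 5.7 -/
theorem rank2_cent_abelem_der1_sub_Fitting [hp : Fact p.Prime] (hodd : Odd ♯H) (hH : Group.IsSolvable H)
    (hE : E ≤ fittingOf H) (he : IsElementaryAbelian p E) (h : rank (fittingOf H ⊓ C⟦E⟧) ≤ 2) :
    ⁅H, H⁆ ≤ fittingOf H := by
  refine chief_stab_sub_Fitting hH (NormalIn.refl H) (der_le H) fun U V hc hU => ?_
  obtain ⟨q, hq, hqe⟩ := sol_chief_abelem hH hc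
  haveI := Fact.mk hq
  by_cases hr : pRank q (fittingOf H) ≤ 2
  · exact rank2_cent_chief hodd hH (fittingOf_normalIn H) hr hc (isPGroup_of_elem hqe) hU
  rw [← pRank_sylow (pCoreOf_sylow_fittingOf q H), not_le] at hr
  have hR := piCoreOf_normalIn {q} H
  have key : ∀ K ≤ fittingOf H, K ≤ C⟦E⟧ → pRank q K ≤ 2 := fun K h1 h2 =>
    (pRank_le_rank q K).trans ((rank_mono (le_inf h1 h2)).trans h)
  have hRF := pCoreOf_le_fittingOf q H
  obtain rfl : q = p := by
    by_contra hqp
    exact hr.not_ge (key _ hRF (cent_of_nil_coprime (nil_fittingOf H) hRF hE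
      (coprime_of_isPGroup_ne (isPGroup_piCoreOf q H) (isPGroup_of_elem he) hqp)))
  have hn : Narrow q (piCoreOf {q} H) := fun _ => by
    obtain ⟨F, hF, hEF⟩ := exists_isMaxElem_ge he (le_pCoreOf_of_le_fittingOf hE (isPGroup_of_elem he))
    have h1 := key F (hF.le.trans hRF) (le_cent_of_comm hF.comm le_rfl hEF)
    refine ⟨F, ?_, hF⟩
    have h2 := (elem_isElem_pRank hF.elem).mono hF.le
    rcases h1.lt_or_eq with h3 | h3
    · exfalso
      have h4 : ♯F ∣ q := h2.card ▸ (pow_dvd_pow q (by omega : pRank q F ≤ 1)).trans (by simp)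
      have h5 := hF.omegaOne_center_le hF.le le_rfl
      have h6 := eq_of_le_card h5 ((Nat.le_of_dvd hq.pos h4).trans (Nat.le_of_dvd (card_pos _)
        (dvd_card_of_isPGroup (hF.isPGroup.to_le h5) (omegaOne_center_ne_bot (isPGroup_piCoreOf q H)
          fun h => by rw [h, pRank_bot] at hr; omega))))
      have h7 := hF.pRank_cent
      rw [inf_eq_left.2 (cent_symm (h6 ▸ omegaOne_center_le_cent q _))] at h7
      omega
    · exact h3 ▸ h2
  obtain ⟨P, hP⟩ := exists_sylowOf (p := q) U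
  refine hc.cent_der_of_sylow (isPGroup_of_elem hqe) hP ((narrow_der1_Aut (isPGroup_piCoreOf q H)
    (odd_of_le hodd hR.le) hn hR.norm hH hodd).of_dvd ?_)
  exact (relIndex_dvd_of_le_left _ (cent_anti (le_pCoreOf_of_le_fittingOf (hP.le.trans hU) hP.isPGroup))).trans
    (relIndex_dvd_of_norm (der_mono inf_le_left) (norm_cent (((der_le _).trans inf_le_left).trans hR.norm)))

end Cfsg.Agent.BG
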